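import Cfsg.Agent.Lib.Helper63.C3U.Defs

/-! Ladder C3U, rung PRP. -/

set_option autoImplicit false

namespace Cfsg.Agent.Lib.Helper63.C3U

open Cfsg.Agent.Lib.Helper50.Herm

variable {K V : Type*} [Field K] [Fintype K] [AddCommGroup V] [Module K V] {q : ℕ} {h : V → V → K}

/-- PRP. -/
theorem ndOn_perp (hK : Fintype.card K = q ^ 2) (hh : IsHerm q h) (W : Submodule K V) (hW : NdOn h W) (v : V)
    (hv : v ∈ W) (hvv : h v v = 1) : NdOn h (perp hh W v) := by
  intro u hu hperp
  apply hW u hu.1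
  intro w hw
  have hw' : w - h w v • v ∈ perp hh W v :=
    ⟨W.sub_mem hw (W.smul_mem _ hv), by rw [hh.sub_left, hh.smul_left, hvv, mul_one, sub_self]⟩
  have e : w = h w v • v + (w - h w v • v) := by abel
  rw [e, hh.add_right, hh.smul_right, hu.2, hperp _ hw', mul_zero, add_zero]

end Cfsg.Agent.Lib.Helper63.C3U
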