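import Mathlib

/-! Ladder C3U, rung NRM (Mathlib only). -/

set_option autoImplicit false

namespace Cfsg.Agent.Lib.Helper63.C3U

variable {K : Type*} [Field K] [Fintype K] {q : ℕ}

theorem nrm_two_le (hK : Fintype.card K = q ^ 2) : 2 ≤ q := by
  have h1 : 1 < Fintype.card K := Fintype.one_lt_card
  rw [hK] at h1
  by_contra h
  have : q ≤ 1 := by omega
  have h2 : q ^ 2 ≤ 1 ^ 2 := Nat.pow_le_pow_left this 2
  omega

theorem nrm_gen (hK : Fintype.card K = q ^ 2) :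
    ∃ g : Kˣ, orderOf g = (q + 1) * (q - 1) ∧ ∀ u : Kˣ, ∃ k : ℕ, g ^ k = u := by
  classical
  obtain ⟨g, hg⟩ := IsCyclic.exists_generator (α := Kˣ)
  refine ⟨g, ?_, fun u => ?_⟩
  · rw [orderOf_eq_card_of_forall_mem_zpowers hg, Nat.card_eq_fintype_card, Fintype.card_units, hK]
    have := nrm_two_le hK
    obtain ⟨r, rfl⟩ : ∃ r, q = r + 1 := ⟨q - 1, by omega⟩
    simp only [Nat.add_sub_cancel]
    have : (r + 1) ^ 2 = (r + 1 + 1) * r + 1 := by ring
    omega
  · have := hg u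
    rw [← mem_powers_iff_mem_zpowers] at this
    exact this

/-- NRM. -/
theorem exists_norm (hK : Fintype.card K = q ^ 2) (a : K) (ha : a ≠ 0) (haq : a ^ q = a) :
    ∃ l : K, l ^ (q + 1) = a := by
  have hq := nrm_two_le hK
  obtain ⟨g, ho, hg⟩ := nrm_gen hK
  obtain ⟨k, hk⟩ := hg (Units.mk0 a ha)
  have ha1 : a ^ (q - 1) = 1 := by
    have h1 : a ^ (q - 1) * a = 1 * a := by
      rw [← pow_succ, one_mul, Nat.sub_add_cancel (by omega)]; exact haq
    exact mul_right_cancel₀ ha h1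
  have h2 : g ^ (k * (q - 1)) = 1 := by
    rw [pow_mul, hk]
    apply Units.ext
    simpa using ha1
  have h3 : (q + 1) * (q - 1) ∣ k * (q - 1) := ho ▸ orderOf_dvd_of_pow_eq_one h2
  obtain ⟨j, rfl⟩ := Nat.dvd_of_mul_dvd_mul_right (by omega) h3
  refine ⟨((g ^ j : Kˣ) : K), ?_⟩
  have h4 : (g ^ j) ^ (q + 1) = Units.mk0 a ha := by rw [← pow_mul, mul_comm, hk]
  have := congrArg (fun u : Kˣ => (u : K)) h4
  simpa using this

end Cfsg.Agent.Lib.Helper63.C3U
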