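import Mathlib
import Cfsg.Agent.Lib.Helper63.C3U.NRM

/-! Ladder C3U, rung TRC (Mathlib only). -/

set_option autoImplicit false

namespace Cfsg.Agent.Lib.Helper63.C3U

variable {K : Type*} [Field K] [Fintype K] {q : ℕ}

/-- TRC. -/
theorem exists_trace_ne (hK : Fintype.card K = q ^ 2) : ∃ d : K, d + d ^ q ≠ 0 := by
  have hq := nrm_two_le hK
  by_contra hcon
  push Not at hcon
  obtain ⟨g, ho, -⟩ := nrm_gen hK
  have hg0 : (g : K) ≠ 0 := g.ne_zero
  have h1 : (g : K) ^ (q - 1) = -1 := by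
    have h1 : (g : K) ^ (q - 1) * g = (-1) * g := by
      rw [← pow_succ, Nat.sub_add_cancel (by omega)]
      linear_combination hcon (g : K)
    exact mul_right_cancel₀ hg0 h1
  have h2 : g ^ (2 * (q - 1)) = 1 := by
    apply Units.ext
    rw [mul_comm, pow_mul]
    push_cast
    rw [h1]; norm_num
  have h3 : (q + 1) * (q - 1) ∣ 2 * (q - 1) := ho ▸ orderOf_dvd_of_pow_eq_one h2
  have h4 : q + 1 ∣ 2 := Nat.dvd_of_mul_dvd_mul_right (by omega) h3
  have := Nat.le_of_dvd (by norm_num) h4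
  omega

end Cfsg.Agent.Lib.Helper63.C3U
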