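import Cfsg.Agent.Lib.Helper63.C3U.Defs
import Cfsg.Agent.Lib.Helper63.C3U.NRM
import Cfsg.Agent.Lib.Helper63.C3U.TRC

/-! Ladder C3U, rung UV. -/

set_option autoImplicit false

namespace Cfsg.Agent.Lib.Helper63.C3U

open Cfsg.Agent.Lib.Helper50.Herm

variable {K V : Type*} [Field K] [Fintype K] [AddCommGroup V] [Module K V] {q : ℕ} {h : V → V → K}

theorem uv_of_norm_ne (hK : Fintype.card K = q ^ 2) (hh : IsHerm q h) (W : Submodule K V) (u : V)
    (hu : u ∈ W) (ha : h u u ≠ 0) : ∃ v ∈ W, h v v = 1 := by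
  obtain ⟨l, hl⟩ := exists_norm hK (h u u) ha (hh.symm u u).symm
  have hl0 : l ≠ 0 := by
    rintro rfl
    rw [zero_pow (by omega)] at hl
    exact ha hl.symm
  refine ⟨l⁻¹ • u, W.smul_mem _ hu, ?_⟩
  rw [hh.smul_left, hh.smul_right, ← hl, inv_pow, pow_succ]
  field_simp

/-- UV. -/
theorem exists_unit_vector (hK : Fintype.card K = q ^ 2) (hh : IsHerm q h) (W : Submodule K V) (hW : NdOn h W)
    (hne : W ≠ ⊥) : ∃ v ∈ W, h v v = 1 := by
  obtain ⟨u, hu, hu0⟩ := Submodule.exists_mem_ne_zero_of_ne_bot hne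
  have h1 : ∃ v ∈ W, h u v ≠ 0 := by
    by_contra hcon
    push Not at hcon
    exact hu0 (hW u hu hcon)
  obtain ⟨v, hv, huv⟩ := h1
  by_cases huu : h u u = 0
  swap
  · exact uv_of_norm_ne hK hh W u hu huu
  by_cases hvv : h v v = 0
  swap
  · exact uv_of_norm_ne hK hh W v hv hvv
  obtain ⟨d, hd⟩ := exists_trace_ne hK
  set c : K := (d / h u v) ^ q with hc
  have hcq : c ^ q = d / h u v := Cfsg.Agent.Lib.Helper50.pow_q_sq hK _
  apply uv_of_norm_ne hK hh W (u + c • v) (W.add_mem hu (W.smul_mem _ hv))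
  have e : h (u + c • v) (u + c • v) = d + d ^ q := by
    rw [hh.add_left, hh.add_right, hh.add_right, hh.smul_left, hh.smul_left, hh.smul_right, hh.smul_right,
      huu, hvv, hh.symm u v, hcq, hc, div_pow]
    have huvq : h u v ^ q ≠ 0 := pow_ne_zero _ huv
    field_simp
    ring
  rw [e]; exact hd

end Cfsg.Agent.Lib.Helper63.C3U
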