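import Cfsg.Agent.Lib.Helper63.C3U.Defs
import Cfsg.Agent.Lib.Helper63.C3U.UV
import Cfsg.Agent.Lib.Helper63.C3U.PRP

/-! Ladder C3U, rung ACD. -/

set_option autoImplicit false

namespace Cfsg.Agent.Lib.Helper63.C3U

open Cfsg.Agent.Lib.Helper50.Herm

variable {K V : Type*} [Field K] [Fintype K] [AddCommGroup V] [Module K V] {q : ℕ} {h : V → V → K}

/-- ACD. -/
theorem aCard_of_nd [Finite V] (hK : Fintype.card K = q ^ 2) (hh : IsHerm q h) (d : ℕ) :
    ∀ W : Submodule K V, NdOn h W → Nat.card W = q ^ (2 * d) → aCard h W = aSeq q d := by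
  have h2 := Cfsg.Agent.Lib.Helper50.two_le_q hK
  induction d with
  | zero =>
    intro W _ hcard
    rw [mul_zero, pow_zero, Nat.card_eq_one_iff_unique] at hcard
    obtain ⟨hsub, -⟩ := hcard
    show Nat.card {w : V // w ∈ W ∧ h w w = 1} = 0
    have : IsEmpty {w : V // w ∈ W ∧ h w w = 1} := by
      constructor
      rintro ⟨w, hw, hw1⟩
      have h0 : (⟨w, hw⟩ : W) = 0 := Subsingleton.elim _ _
      have h0' : w = 0 := congrArg Subtype.val h0
      rw [h0', hh.zero_left] at hw1
      exact zero_ne_one hw1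
    exact Nat.card_of_isEmpty
  | succ d ih =>
    intro W hW hcard
    have hne : W ≠ ⊥ := by
      rintro rfl
      have h1 : Nat.card (⊥ : Submodule K V) = 1 := Nat.card_unique
      rw [h1] at hcard
      have h3 : 1 < q ^ (2 * (d + 1)) := Nat.one_lt_pow (by omega) (by omega)
      omega
    obtain ⟨v, hv, hvv⟩ := exists_unit_vector hK hh W hW hne
    have hc : Nat.card (perp hh W v) = q ^ (2 * d) := by
      have h3 := Nat.card_congr (splitEquiv hh W v hv hvv)
      rw [Nat.card_prod, hcard, Nat.card_eq_fintype_card, hK] at h3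
      have h4 : q ^ (2 * (d + 1)) = q ^ 2 * q ^ (2 * d) := by ring
      rw [h4] at h3
      exact (Nat.eq_of_mul_eq_mul_left (by positivity) h3).symm
    have h5 := relation hK hh W v hv hvv
    rw [ih _ (ndOn_perp hK hh W hW v hv hvv) hc, hc, ← aSeq_rel (by omega) d] at h5
    exact Nat.add_right_cancel h5

end Cfsg.Agent.Lib.Helper63.C3U
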