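import Cfsg.Agent.Lib.Helper63.C3U.Defs

set_option autoImplicit false

namespace Cfsg.Agent.Lib.Helper63.C3U

open Cfsg.Agent.Lib.Helper50.Herm

theorem ari_bSeq (q i : ℕ) (hq : 1 ≤ q) : ((bSeq q i : ℕ) : ℤ) = (q : ℤ) ^ (i + 1) - (-1) ^ (i + 1) := by
  unfold bSeq
  have h1 : 1 ≤ q ^ (i + 1) := Nat.one_le_pow _ _ hq
  split_ifs with h
  · rw [(Even.add_one h).neg_one_pow]
    push_cast
    ring
  · have h' : Odd i := Nat.not_even_iff_odd.1 h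
    rw [(Odd.add_one h').neg_one_pow]
    push_cast [Nat.cast_sub h1]
    ring

/-- ARI. -/
theorem arith (q m : ℕ) (hq : 1 ≤ q) :
    ((∏ i ∈ Finset.range m, aSeq q (i + 1) : ℕ) : ℤ) =
      (q : ℤ) ^ (m * (m - 1) / 2) * ∏ i : Fin m, ((q : ℤ) ^ ((i : ℕ) + 1) - (-1) ^ ((i : ℕ) + 1)) := by
  simp only [aSeq]
  rw [Finset.prod_mul_distrib, Finset.prod_pow_eq_pow_sum, Finset.sum_range_id]
  push_cast
  congr 1
  rw [Fin.prod_univ_eq_prod_range (fun i => (q : ℤ) ^ (i + 1) - (-1) ^ (i + 1)) m]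
  exact Finset.prod_congr rfl (fun i _ => ari_bSeq q i hq)

end Cfsg.Agent.Lib.Helper63.C3U
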