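import Mathlib

/-! Ladder C3U, rung OMQ (Mathlib only), with the basic fact `omq_noroot`. -/

set_option autoImplicit false

namespace Cfsg.Agent.Lib.Helper63.C3U

theorem omq_cube {K : Type*} [Field K] (ω : K) (hω : ω ^ 2 + ω + 1 = 0) : ω ^ 3 = 1 := by
  linear_combination (ω - 1) * hω

/-- OMQ. -/
theorem omega_pow_q {K : Type*} [Field K] {q : ℕ} (hq : q % 3 = 2) (ω : K) (hω : ω ^ 2 + ω + 1 = 0) :
    ω ^ q = ω ^ 2 := by
  have h : q = 3 * (q / 3) + 2 := by omega
  rw [h, pow_add, pow_mul, omq_cube ω hω, one_pow, one_mul]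

/-- `X^2 + X + 1` has no root in a field with `q ≡ 2 (mod 3)` elements -/
theorem omq_noroot {F : Type*} [Field F] [Fintype F] {q : ℕ} (hF : Fintype.card F = q) (hq : q % 3 = 2)
    (c : F) : c ^ 2 + c + 1 ≠ 0 := by
  intro hc
  have h3 : c ^ 3 = 1 := omq_cube c hc
  have hc0 : c ≠ 0 := by
    rintro rfl
    norm_num at h3
  have h1 : c ^ (q - 1) = 1 := by
    rw [← hF]; exact FiniteField.pow_card_sub_one_eq_one c hc0
  have h : q - 1 = 3 * (q / 3) + 1 := by omega
  rw [h, pow_add, pow_mul, h3, one_pow, one_mul, pow_one] at h1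
  rw [h1] at hc
  have h30 : (3 : F) = 0 := by linear_combination hc
  have hq0 : ((Fintype.card F : ℕ) : F) = 0 := FiniteField.cast_card_eq_zero F
  have h' : q = 3 * (q / 3) + 2 := by omega
  rw [hF, h'] at hq0
  push_cast at hq0
  have h20 : (2 : F) = 0 := by linear_combination hq0 - ((q / 3 : ℕ) : F) * h30
  have : (1 : F) = 0 := by linear_combination h30 - h20
  exact one_ne_zero this

end Cfsg.Agent.Lib.Helper63.C3U
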