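import Mathlib
import Cfsg.Agent.Lib.Helper63.C3U.OMQ

/-! Ladder C3U, rungs SPAN (Mathlib only). -/

set_option autoImplicit false

namespace Cfsg.Agent.Lib.Helper63.C3U

variable {F K : Type*} [Field F] [Fintype F] [Field K] [Fintype K] [Algebra F K] {q : ℕ}

omit [Fintype K] in
theorem span_inj (hF : Fintype.card F = q) (hq : q % 3 = 2) (ω : K) (hω : ω ^ 2 + ω + 1 = 0) :
    Function.Injective (fun p : F × F => algebraMap F K p.1 + algebraMap F K p.2 * ω) := by
  rintro ⟨a, b⟩ ⟨a', b'⟩ h
  simp only at h
  have hinj : Function.Injective (algebraMap F K) := (algebraMap F K).injective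
  have hb : b = b' := by
    by_contra hne
    have hd : b' - b ≠ 0 := sub_ne_zero.mpr (Ne.symm hne)
    have hd' : algebraMap F K (b' - b) ≠ 0 := fun h0 => hd (hinj (by rw [h0, map_zero]))
    have hw : ω = algebraMap F K ((a - a') / (b' - b)) := by
      rw [map_div₀, eq_div_iff hd', map_sub, map_sub]
      linear_combination -h
    apply omq_noroot hF hq ((a - a') / (b' - b))
    apply hinj
    rw [map_add, map_add, map_pow, ← hw, map_one, map_zero]
    exact hω
  subst hb
  have ha : a = a' := hinj (add_right_cancel h)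
  rw [ha]

/-- SPAN. -/
theorem span_bij (hF : Fintype.card F = q) (hK : Fintype.card K = q ^ 2) (hq : q % 3 = 2) (ω : K)
    (hω : ω ^ 2 + ω + 1 = 0) :
    Function.Bijective (fun p : F × F => algebraMap F K p.1 + algebraMap F K p.2 * ω) := by
  rw [Fintype.bijective_iff_injective_and_card]
  exact ⟨span_inj hF hq ω hω, by rw [Fintype.card_prod, hF, hK, pow_two]⟩

end Cfsg.Agent.Lib.Helper63.C3U
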