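import Mathlib
import Cfsg.Agent.Lib.Helper63.C3U.SPAN

/-! Ladder C3U, rung COEF (Mathlib only). -/

set_option autoImplicit false

namespace Cfsg.Agent.Lib.Helper63.C3U

variable {F K : Type*} [Field F] [Fintype F] [Field K] [Fintype K] [Algebra F K] {q : ℕ}

/-- COEF. -/
theorem coef_eq (hF : Fintype.card F = q) (hK : Fintype.card K = q ^ 2) (hq : q % 3 = 2) (ω : K)
    (hω : ω ^ 2 + ω + 1 = 0) (a b a' b' : F)
    (h : ω ^ 2 * algebraMap F K a - algebraMap F K b = ω ^ 2 * algebraMap F K a' - algebraMap F K b') :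
    a = a' ∧ b = b' := by
  have h1 : (fun p : F × F => algebraMap F K p.1 + algebraMap F K p.2 * ω) (-a - b, -a) =
      (fun p : F × F => algebraMap F K p.1 + algebraMap F K p.2 * ω) (-a' - b', -a') := by
    simp only [map_sub, map_neg]
    linear_combination h - (algebraMap F K a - algebraMap F K a') * hω
  have h2 := span_inj hF hq ω hω h1
  rw [Prod.mk.injEq] at h2
  have ha : a = a' := neg_injective h2.2
  subst ha
  exact ⟨rfl, by linear_combination -h2.1⟩

end Cfsg.Agent.Lib.Helper63.C3U
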