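import Cfsg.Agent.Lib.Helper50.GUFrames

/-!
# Ladder C3U (S2637): centraliser of a fixed-point-free element of order 3 in `Sp_2m(q)`, `q ≡ 2 (mod 3)`.
Definitions.
-/

set_option autoImplicit false

namespace Cfsg.Agent.Lib.Helper63.C3U

/-- `h` is non-degenerate on `W` -/
def NdOn {K V : Type*} [Field K] [AddCommGroup V] [Module K V] (h : V → V → K) (W : Submodule K V) : Prop :=
  ∀ u ∈ W, (∀ v ∈ W, h u v = 0) → u = 0

/-- the hermitian form attached to an `ω`-invariant alternating form -/
def hf {F K V : Type*} [Field F] [Field K] [Algebra F K] [AddCommGroup V] [Module K V]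
    (f : V → V → F) (ω : K) (u v : V) : K :=
  ω ^ 2 * algebraMap F K (f u v) - algebraMap F K (f (ω • u) v)

end Cfsg.Agent.Lib.Helper63.C3U
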