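import Cfsg.Agent.Lib.Helper63.C3U.Defs
import Cfsg.Agent.Lib.Helper63.C3U.SPAN
import Cfsg.Agent.Lib.Helper63.C3U.COEF

set_option autoImplicit false

namespace Cfsg.Agent.Lib.Helper63.C3U

open Cfsg.Agent.Lib.Helper50.Herm

variable {F K V : Type*} [Field F] [Fintype F] [Field K] [Fintype K] [Algebra F K] [AddCommGroup V] [Module F V]
  [Module K V] [IsScalarTower F K V] {q : ℕ}

/-- EQV. -/
theorem card_eqv (hF : Fintype.card F = q) (hK : Fintype.card K = q ^ 2) (hq : q % 3 = 2) (ω : K)
    (hω : ω ^ 2 + ω + 1 = 0) (f : LinearMap.BilinForm F V) :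
    Nat.card {g : V ≃ₗ[F] V // (∀ u v, f (g u) (g v) = f u v) ∧ ∀ u, g (ω • u) = ω • g u} =
      Nat.card {g : V ≃ₗ[K] V // ∀ u v, hf (fun u v => f u v) ω (g u) (g v) = hf (fun u v => f u v) ω u v} := by
  symm
  apply Nat.card_congr
  refine Equiv.ofBijective (fun g => ⟨g.1.restrictScalars F, ?_, ?_⟩) ⟨?_, ?_⟩
  · intro u v
    have h := g.2 u v
    simp only [hf] at h
    exact (coef_eq hF hK hq ω hω _ _ _ _ h).1
  · intro u
    exact g.1.map_smul ω u
  · intro g g' h
    apply Subtype.ext
    apply LinearEquiv.ext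
    intro u
    have := congrArg (fun z => z.1 u) h
    exact this
  · rintro ⟨g, hg1, hg2⟩
    have hlin : ∀ (c : K) (u : V), g (c • u) = c • g u := by
      intro c u
      obtain ⟨⟨a, b⟩, rfl⟩ := (span_bij hF hK hq ω hω).2 c
      simp only
      rw [add_smul, add_smul, mul_smul, mul_smul, algebraMap_smul, algebraMap_smul, algebraMap_smul,
        algebraMap_smul, map_add, map_smul, map_smul, hg2]
    let g' : V ≃ₗ[K] V :=
      { toFun := g
        invFun := g.symm
        left_inv := g.left_inv
        right_inv := g.right_inv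
        map_add' := g.map_add
        map_smul' := hlin }
    refine ⟨⟨g', ?_⟩, ?_⟩
    · intro u v
      show hf (fun u v => f u v) ω (g u) (g v) = hf (fun u v => f u v) ω u v
      simp only [hf]
      rw [← hg2, hg1, hg1]
    · apply Subtype.ext
      apply LinearEquiv.ext
      intro u
      rfl

end Cfsg.Agent.Lib.Helper63.C3U
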