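import Cfsg.Agent.Lib.Helper63.C3U.Defs

set_option autoImplicit false

namespace Cfsg.Agent.Lib.Helper63.C3U

open Cfsg.Agent.Lib.Helper50.Herm Cfsg.Agent.Lib.Helper50

section A
variable {K V : Type*} [Field K] [Fintype K] [AddCommGroup V] [Module K V] {q : ℕ} {h : V → V → K}

omit [Fintype K] in
theorem frb_li (hh : IsHerm q h) (m : ℕ) (x : Fin m → V) (hx : IsFr h m ⊤ x) :
    LinearIndependent K x := by
  rw [Fintype.linearIndependent_iff]
  intro g hg j
  have h1 : h (∑ i, g i • x i) (x j) = g j := by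
    rw [hh.sum_left]
    rw [Finset.sum_eq_single j]
    · rw [hh.smul_left, hx.2 j j, if_pos rfl, mul_one]
    · intro i _ hij
      rw [hh.smul_left, hx.2 i j, if_neg hij, mul_zero]
    · intro hj
      exact absurd (Finset.mem_univ j) hj
  rw [hg, hh.zero_left] at h1
  exact h1.symm

theorem frb_finrank [Finite V] (hK : Fintype.card K = q ^ 2) (m : ℕ) (hV : Nat.card V = q ^ (2 * m)) :
    Module.finrank K V = m := by
  have h2 := two_le_q hK
  have h1 : Nat.card V = Nat.card K ^ Module.finrank K V := Module.natCard_eq_pow_finrank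
  rw [hV, Nat.card_eq_fintype_card, hK, ← pow_mul] at h1
  have h3 := Nat.pow_right_injective h2 h1
  omega

/-- FRB. -/
theorem frame_basis [Finite V] (hK : Fintype.card K = q ^ 2) (hh : IsHerm q h) (m : ℕ) (hV : Nat.card V = q ^ (2 * m))
    (x : Fin m → V) (hx : IsFr h m ⊤ x) : ∃ b : Module.Basis (Fin m) K V, ∀ i, b i = x i := by
  have hli := frb_li hh m x hx
  have hsp : Submodule.span K (Set.range x) = ⊤ :=
    hli.span_eq_top_of_card_eq_finrank' (by rw [Fintype.card_fin, frb_finrank hK m hV])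
  exact ⟨Module.Basis.mk hli hsp.ge, fun i => Module.Basis.mk_apply hli hsp.ge i⟩

end A

end Cfsg.Agent.Lib.Helper63.C3U
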