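import Cfsg.Agent.Lib.Helper63.C3U.Defs
import Cfsg.Agent.Lib.Helper63.C3U.SPAN
import Cfsg.Agent.Lib.Helper63.C3U.OMQ

set_option autoImplicit false

namespace Cfsg.Agent.Lib.Helper63.C3U

open Cfsg.Agent.Lib.Helper50.Herm

variable {F K V : Type*} [Field F] [Fintype F] [Field K] [Fintype K] [Algebra F K] [AddCommGroup V] [Module F V]
  [Module K V] [IsScalarTower F K V] {q : ℕ}

omit [Fintype F] [Fintype K] [Field F] [Algebra F K] [Module F V] [IsScalarTower F K V] in
theorem herm_sq (ω : K) (hω : ω ^ 2 + ω + 1 = 0) (u : V) : ω • (ω • u) = -u - ω • u := by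
  have : (ω ^ 2 + ω + 1) • u = 0 := by rw [hω, zero_smul]
  rw [add_smul, add_smul, one_smul, pow_two, mul_smul] at this
  rw [eq_sub_iff_add_eq, eq_neg_iff_add_eq_zero]
  exact this

/-- HERM. -/
theorem isHerm_hf (hF : Fintype.card F = q) (hK : Fintype.card K = q ^ 2) (hq : q % 3 = 2) (ω : K)
    (hω : ω ^ 2 + ω + 1 = 0) (f : LinearMap.BilinForm F V) (hskew : ∀ u v, f v u = - f u v)
    (hinv : ∀ u v, f (ω • u) (ω • v) = f u v) : IsHerm q (hf (fun u v => f u v) ω) := by
  have hω3 : ω ^ 3 = 1 := omq_cube ω hω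
  have hωq := omega_pow_q hq ω hω
  have hsq := herm_sq (V := V) ω hω
  have hadd_left : ∀ u u' v, hf (fun u v => f u v) ω (u + u') v =
      hf (fun u v => f u v) ω u v + hf (fun u v => f u v) ω u' v := by
    intro u u' v
    simp only [hf, smul_add, map_add, LinearMap.add_apply]
    ring
  have homega : ∀ u v, hf (fun u v => f u v) ω (ω • u) v = ω * hf (fun u v => f u v) ω u v := by
    intro u v
    simp only [hf]
    rw [hsq]
    simp only [map_sub, map_neg, LinearMap.sub_apply, LinearMap.neg_apply]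
    linear_combination (algebraMap F K (f (ω • u) v)) * hω - (algebraMap F K (f u v)) * hω3
  have hFs : ∀ (a : F) u v, hf (fun u v => f u v) ω (a • u) v =
      algebraMap F K a * hf (fun u v => f u v) ω u v := by
    intro a u v
    simp only [hf]
    rw [smul_comm ω a u]
    simp only [map_smul, LinearMap.smul_apply, smul_eq_mul, map_mul]
    ring
  have hsl : ∀ (c : K) u v, hf (fun u v => f u v) ω (c • u) v = c * hf (fun u v => f u v) ω u v := by
    intro c u v
    obtain ⟨⟨a, b⟩, rfl⟩ := (span_bij hF hK hq ω hω).2 c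
    simp only
    rw [add_smul, mul_smul, algebraMap_smul, algebraMap_smul, hadd_left, hFs, hFs, homega]
    ring
  have hamq : ∀ a : F, (algebraMap F K a) ^ q = algebraMap F K a := by
    intro a
    rw [← map_pow, ← hF, FiniteField.pow_card]
  have hsymm : ∀ u v, hf (fun u v => f u v) ω v u = hf (fun u v => f u v) ω u v ^ q := by
    intro u v
    simp only [hf]
    rw [Cfsg.Agent.Lib.Helper50.sub_pow_q hK, mul_pow, hamq, hamq, ← pow_mul, mul_comm 2 q, pow_mul, hωq]
    have h1 : f u (ω • v) = - f u v - f (ω • u) v := by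
      have h2 := hinv (ω • (ω • u)) v
      have h3 : ω • (ω • (ω • u)) = u := by
        rw [← mul_smul, ← mul_smul]
        have : ω * ω * ω = ω ^ 3 := by ring
        rw [this, hω3, one_smul]
      rw [h3, hsq] at h2
      rw [h2]
      simp only [map_sub, map_neg, LinearMap.sub_apply, LinearMap.neg_apply]
    rw [hskew u v, hskew u (ω • v), h1]
    simp only [map_sub, map_neg]
    linear_combination (-(algebraMap F K (f u v))) * hω - ω * (algebraMap F K (f u v)) * hω3
  refine ⟨hadd_left, hsl, ?_, ?_, hsymm⟩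
  · intro u v v'
    simp only [hf, map_add]
    ring
  · intro c u v
    rw [hsymm (c • v) u, hsl, mul_pow, ← hsymm v u]

end Cfsg.Agent.Lib.Helper63.C3U
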