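import Mathlib
import Cfsg.Agent.Lib.Helper63.C3U.OMQ

/-! Ladder C3U, rung IRR (Mathlib only). -/

set_option autoImplicit false

namespace Cfsg.Agent.Lib.Helper63.C3U

/-- IRR. -/
theorem irr_poly {F : Type*} [Field F] [Fintype F] {q : ℕ} (hF : Fintype.card F = q) (hq : q % 3 = 2) :
    Irreducible (Polynomial.X ^ 2 + Polynomial.X + 1 : Polynomial F) := by
  have hm : (Polynomial.X ^ 2 + Polynomial.X + 1 : Polynomial F).Monic := by monicity!
  have hd : (Polynomial.X ^ 2 + Polynomial.X + 1 : Polynomial F).natDegree = 2 := by compute_degree!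
  rw [Polynomial.Monic.irreducible_iff_roots_eq_zero_of_degree_le_three hm (by rw [hd]) (by rw [hd]; norm_num)]
  apply Multiset.eq_zero_of_forall_notMem
  intro c hc
  rw [Polynomial.mem_roots hm.ne_zero, Polynomial.IsRoot.def] at hc
  simp only [Polynomial.eval_add, Polynomial.eval_pow, Polynomial.eval_X, Polynomial.eval_one] at hc
  exact omq_noroot hF hq c hc

end Cfsg.Agent.Lib.Helper63.C3U
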