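import Cfsg.Agent.Lib.Helper63.C3U.Defs
import Cfsg.Agent.Lib.Helper63.C3U.ACD
import Cfsg.Agent.Lib.Helper63.C3U.FRB

set_option autoImplicit false

namespace Cfsg.Agent.Lib.Helper63.C3U

open Cfsg.Agent.Lib.Helper50 Cfsg.Agent.Lib.Helper50.Herm

variable {K V : Type*} [Field K] [Fintype K] [AddCommGroup V] [Module K V] {q : ℕ} {h : V → V → K}

omit [Fintype K] in
theorem iso_expand (hq0 : q ≠ 0) (hh : IsHerm q h) (m : ℕ) (y : Fin m → V) (hy : IsFr h m ⊤ y) (α β : Fin m → K) :
    h (∑ i, α i • y i) (∑ j, β j • y j) = ∑ i, α i * β i ^ q := by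
  rw [hh.sum_left]
  apply Finset.sum_congr rfl
  intro i _
  rw [hh.sum_right hq0]
  simp only [hh.smul_left, hh.smul_right, hy.2]
  simp

/-- ISO. -/
theorem card_isom [Finite V] (hK : Fintype.card K = q ^ 2) (hh : IsHerm q h) (m : ℕ) (hnd : NdOn h ⊤)
    (hV : Nat.card V = q ^ (2 * m)) :
    Nat.card {g : V ≃ₗ[K] V // ∀ u v, h (g u) (g v) = h u v} = ∏ i ∈ Finset.range m, aSeq q (i + 1) := by
  have h2 := two_le_q hK
  have hq0 : q ≠ 0 := by omega
  have hc : Nat.card (⊤ : Submodule K V) = q ^ (2 * m) := by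
    rw [Nat.card_congr (Submodule.topEquiv (R := K) (M := V)).toEquiv, hV]
  have hfr := card_frames hK hh m ⊤ hc (aCard_of_nd hK hh m ⊤ hnd hc)
  have hpos : 0 < ∏ i ∈ Finset.range m, aSeq q (i + 1) := by
    apply Finset.prod_pos
    intro i _
    simp only [aSeq, bSeq]
    have h1 : 2 ≤ q ^ (i + 1) := le_trans h2 (Nat.le_self_pow (by omega) q)
    have h3 : 0 < q ^ i := Nat.pow_pos (by omega)
    split_ifs
    · positivity
    · exact Nat.mul_pos h3 (by omega)
  rw [← hfr] at hpos ⊢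
  obtain ⟨e⟩ : Nonempty {x : Fin m → V // IsFr h m ⊤ x} := by
    by_contra hne
    rw [not_nonempty_iff] at hne
    rw [Nat.card_of_isEmpty] at hpos
    omega
  obtain ⟨b, hb⟩ := frame_basis hK hh m hV e.1 e.2
  apply Nat.card_congr
  refine Equiv.ofBijective (fun g => ⟨fun i => g.1 (e.1 i), fun _ => Submodule.mem_top,
    fun i j => by rw [g.2]; exact e.2.2 i j⟩) ⟨?_, ?_⟩
  · intro g g' hgg
    apply Subtype.ext
    apply LinearEquiv.toLinearMap_injective
    apply b.ext
    intro i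
    rw [hb]
    exact congrFun (congrArg Subtype.val hgg) i
  · rintro ⟨x, hx⟩
    obtain ⟨b', hb'⟩ := frame_basis hK hh m hV x hx
    have hg : ∀ u, b.equiv b' (Equiv.refl _) u = ∑ i, b.repr u i • x i := by
      intro u
      conv_lhs => rw [← b.sum_repr u]
      rw [map_sum]
      apply Finset.sum_congr rfl
      intro i _
      rw [map_smul, Module.Basis.equiv_apply, Equiv.refl_apply, hb']
    have hu : ∀ u, u = ∑ i, b.repr u i • e.1 i := by
      intro u
      conv_lhs => rw [← b.sum_repr u]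
      apply Finset.sum_congr rfl
      intro i _
      rw [hb]
    refine ⟨⟨b.equiv b' (Equiv.refl _), ?_⟩, ?_⟩
    · intro u v
      rw [hg u, hg v, iso_expand hq0 hh m x hx]
      conv_rhs => rw [hu u, hu v, iso_expand hq0 hh m e.1 e.2]
    · apply Subtype.ext
      funext i
      show b.equiv b' (Equiv.refl _) (e.1 i) = x i
      rw [← hb, Module.Basis.equiv_apply, Equiv.refl_apply, hb']

end Cfsg.Agent.Lib.Helper63.C3U
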