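import Cfsg.Agent.Lib.Helper63.C3U.Defs
import Cfsg.Agent.Lib.Helper63.C3U.COEF
import Cfsg.Agent.Lib.Helper63.C3U.HERM
import Cfsg.Agent.Lib.Helper63.C3U.EQV
import Cfsg.Agent.Lib.Helper63.C3U.ISO

set_option autoImplicit false

namespace Cfsg.Agent.Lib.Helper63.C3U

open Cfsg.Agent.Lib.Helper50.Herm

variable {F K V : Type*} [Field F] [Fintype F] [Field K] [Fintype K] [Algebra F K] [AddCommGroup V] [Module F V]
  [Module K V] [IsScalarTower F K V] {q : ℕ}

/-- MID2. -/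
theorem mid2 [Finite V] (hF : Fintype.card F = q) (hK : Fintype.card K = q ^ 2) (hq : q % 3 = 2) (ω : K)
    (hω : ω ^ 2 + ω + 1 = 0) (f : LinearMap.BilinForm F V) (hskew : ∀ u v, f v u = - f u v)
    (hinv : ∀ u v, f (ω • u) (ω • v) = f u v) (hnd : ∀ u, (∀ v, f u v = 0) → u = 0) (m : ℕ)
    (hV : Nat.card V = q ^ (2 * m)) :
    Nat.card {g : V ≃ₗ[F] V // (∀ u v, f (g u) (g v) = f u v) ∧ ∀ u, g (ω • u) = ω • g u} =
      ∏ i ∈ Finset.range m, aSeq q (i + 1) := by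
  rw [card_eqv hF hK hq ω hω f]
  refine card_isom hK (isHerm_hf hF hK hq ω hω f hskew hinv) m ?_ hV
  intro u _ hu
  apply hnd
  intro v
  have h1 := hu v Submodule.mem_top
  have h2 : ω ^ 2 * algebraMap F K (f u v) - algebraMap F K (f (ω • u) v) =
      ω ^ 2 * algebraMap F K 0 - algebraMap F K 0 := by
    simpa [hf] using h1
  exact (coef_eq hF hK hq ω hω _ _ _ _ h2).1

end Cfsg.Agent.Lib.Helper63.C3U
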