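import Cfsg.Agent.Lib.Helper63.C3U.Defs
import Cfsg.Agent.Lib.Helper63.C3U.IRR
import Cfsg.Agent.Lib.Helper63.C3U.MID2

set_option autoImplicit false

namespace Cfsg.Agent.Lib.Helper63.C3U

open Cfsg.Agent.Lib.Helper50.Herm

open Polynomial in
/-- INST. -/
theorem mid {F V : Type*} [Field F] [Fintype F] [AddCommGroup V] [Module F V] [Finite V] {q : ℕ}
    (hF : Fintype.card F = q) (hq : q % 3 = 2) (f : LinearMap.BilinForm F V) (hskew : ∀ u v, f v u = - f u v)
    (hnd : ∀ u, (∀ v, f u v = 0) → u = 0) (T : V →ₗ[F] V) (hT : ∀ u, T (T u) + T u + u = 0)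
    (hinv : ∀ u v, f (T u) (T v) = f u v) (m : ℕ) (hV : Nat.card V = q ^ (2 * m)) :
    Nat.card {g : V ≃ₗ[F] V // (∀ u v, f (g u) (g v) = f u v) ∧ ∀ u, g (T u) = T (g u)} =
      ∏ i ∈ Finset.range m, aSeq q (i + 1) := by
  classical
  set P : F[X] := X ^ 2 + X + 1 with hPdef
  haveI : Fact (Irreducible P) := ⟨irr_poly hF hq⟩
  have hmonic : P.Monic := by
    rw [hPdef]; monicity!
  have hdeg : P.natDegree = 2 := by
    rw [hPdef]; compute_degree!
  have hP0 : P ≠ 0 := hmonic.ne_zero
  have haev : aeval T P = 0 := by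
    rw [hPdef]
    ext u
    simp only [map_add, map_pow, aeval_X, map_one, LinearMap.add_apply, LinearMap.zero_apply,
      Module.End.one_apply]
    rw [pow_two, Module.End.mul_apply]
    exact hT u
  let φ : AdjoinRoot P →+* Module.End F V :=
    Ideal.Quotient.lift (Ideal.span {P}) ((aeval T : F[X] →ₐ[F] Module.End F V) : F[X] →+* Module.End F V) (by
      intro a ha
      obtain ⟨b, rfl⟩ := Ideal.mem_span_singleton.1 ha
      rw [map_mul]
      have : ((aeval T : F[X] →ₐ[F] Module.End F V) : F[X] →+* Module.End F V) P = 0 := haev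
      rw [this, zero_mul])
  have hφmk : ∀ a : F[X], φ (AdjoinRoot.mk P a) = aeval T a := fun a => rfl
  have hφroot : φ (AdjoinRoot.root P) = T := by
    have : AdjoinRoot.root P = AdjoinRoot.mk P X := rfl
    rw [this, hφmk, aeval_X]
  letI : Module (AdjoinRoot P) V := Module.compHom V φ
  have hsmul : ∀ (c : AdjoinRoot P) (u : V), c • u = φ c u := fun c u => rfl
  haveI : IsScalarTower F (AdjoinRoot P) V := ⟨fun a c v => by
    obtain ⟨c, rfl⟩ := AdjoinRoot.mk_surjective c
    rw [hsmul, hsmul, hφmk]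
    have : a • AdjoinRoot.mk P c = AdjoinRoot.mk P (a • c) := rfl
    rw [this, hφmk, map_smul]; rfl⟩
  haveI : Module.Finite F (AdjoinRoot P) := hmonic.finite_adjoinRoot
  haveI : Finite (AdjoinRoot P) := Module.finite_of_finite F
  letI : Fintype (AdjoinRoot P) := Fintype.ofFinite _
  have hK : Fintype.card (AdjoinRoot P) = q ^ 2 := by
    rw [Module.card_eq_pow_finrank (K := F) (V := AdjoinRoot P), hF, (AdjoinRoot.powerBasis hP0).finrank]
    simp [hdeg]
  have hω : (AdjoinRoot.root P) ^ 2 + AdjoinRoot.root P + 1 = 0 := by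
    have h1 : AdjoinRoot.mk P P = 0 := AdjoinRoot.mk_self
    have h2 : AdjoinRoot.mk P P = (AdjoinRoot.root P) ^ 2 + AdjoinRoot.root P + 1 := by
      have h3 : AdjoinRoot.mk P P = AdjoinRoot.mk P (X ^ 2 + X + 1) := rfl
      rw [h3]
      simp only [map_add, map_pow, map_one, AdjoinRoot.mk_X]
    rw [← h2, h1]
  have hroot : ∀ u : V, (AdjoinRoot.root P) • u = T u := fun u => by rw [hsmul, hφroot]
  have := mid2 (K := AdjoinRoot P) hF hK hq (AdjoinRoot.root P) hω f hskew
    (fun u v => by rw [hroot, hroot]; exact hinv u v) hnd m hV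
  simpa only [hroot] using this

end Cfsg.Agent.Lib.Helper63.C3U
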