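import Cfsg.Agent.Lib.Helper63.C3U.Defs

set_option autoImplicit false

namespace Cfsg.Agent.Lib.Helper63.C3U

open Matrix

theorem jf_apply {F : Type*} [Field F] {m : ℕ} (u v : Fin m ⊕ Fin m → F) :
    Matrix.toBilin' (Matrix.J (Fin m) F) u v = u ⬝ᵥ (Matrix.J (Fin m) F *ᵥ v) :=
  Matrix.toBilin'_apply' _ _ _

/-- a matrix preserves the form iff `Aᵀ J A = J` -/
theorem jf_pres {F : Type*} [Field F] {m : ℕ} (A : Matrix (Fin m ⊕ Fin m) (Fin m ⊕ Fin m) F) :
    (∀ u v, Matrix.toBilin' (Matrix.J (Fin m) F) (A *ᵥ u) (A *ᵥ v) = Matrix.toBilin' (Matrix.J (Fin m) F) u v) ↔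
      Aᵀ * Matrix.J (Fin m) F * A = Matrix.J (Fin m) F := by
  have key : ∀ u v, Matrix.toBilin' (Matrix.J (Fin m) F) (A *ᵥ u) (A *ᵥ v) =
      Matrix.toBilin' (Aᵀ * Matrix.J (Fin m) F * A) u v := by
    intro u v
    rw [Matrix.toBilin'_apply', Matrix.toBilin'_apply', Matrix.mulVec_mulVec, Matrix.dotProduct_mulVec,
      Matrix.dotProduct_mulVec, Matrix.vecMul_mulVec, ← Matrix.mul_assoc, ← Matrix.vecMul_vecMul,
      ← Matrix.vecMul_vecMul]
  constructor
  · intro h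
    apply Matrix.toBilin'.injective
    apply LinearMap.ext
    intro u
    apply LinearMap.ext
    intro v
    rw [← key, h]
  · intro h u v
    rw [key, h]

theorem jf_mem_iff {F : Type*} [Field F] {m : ℕ} (A : Matrix (Fin m ⊕ Fin m) (Fin m ⊕ Fin m) F) :
    A ∈ Matrix.symplecticGroup (Fin m) F ↔ Aᵀ * Matrix.J (Fin m) F * A = Matrix.J (Fin m) F := by
  exact SymplecticGroup.mem_iff'

/-- JF. -/
theorem j_facts {F : Type*} [Field F] [Fintype F] {m : ℕ} (x : Matrix.symplecticGroup (Fin m) F) :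
    (∀ u v, Matrix.toBilin' (Matrix.J (Fin m) F) v u = - Matrix.toBilin' (Matrix.J (Fin m) F) u v) ∧
    (∀ u, (∀ v, Matrix.toBilin' (Matrix.J (Fin m) F) u v = 0) → u = 0) ∧
    (∀ u v, Matrix.toBilin' (Matrix.J (Fin m) F)
      (Matrix.toLin' (x : Matrix (Fin m ⊕ Fin m) (Fin m ⊕ Fin m) F) u)
      (Matrix.toLin' (x : Matrix (Fin m ⊕ Fin m) (Fin m ⊕ Fin m) F) v) = Matrix.toBilin' (Matrix.J (Fin m) F) u v) := by
  refine ⟨fun u v => ?_, fun u hu => ?_, fun u v => ?_⟩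
  · rw [jf_apply, jf_apply, Matrix.dotProduct_mulVec, ← Matrix.mulVec_transpose, Matrix.J_transpose,
      Matrix.neg_mulVec, neg_dotProduct, dotProduct_comm]
  · have h1 : ∀ w, u ⬝ᵥ w = 0 := by
      intro w
      have := hu (-(Matrix.J (Fin m) F) *ᵥ w)
      rw [jf_apply, Matrix.mulVec_mulVec, Matrix.mul_neg, Matrix.J_squared] at this
      simpa using this
    funext i
    have := h1 (Pi.single i 1)
    simpa using this
  · rw [Matrix.toLin'_apply, Matrix.toLin'_apply]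
    exact (jf_pres _).2 ((jf_mem_iff _).1 x.2) u v

end Cfsg.Agent.Lib.Helper63.C3U
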