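import Mathlib

/-! Ladder C3U, rung TOP (Mathlib only). -/

set_option autoImplicit false

namespace Cfsg.Agent.Lib.Helper63.C3U

open Matrix

variable {F : Type*} [Field F] {m : ℕ}

/-- the linear equivalence of a symplectic matrix -/
noncomputable def topEq (A : Matrix.symplecticGroup (Fin m) F) :
    (Fin m ⊕ Fin m → F) ≃ₗ[F] (Fin m ⊕ Fin m → F) :=
  LinearEquiv.ofLinear (Matrix.toLin' (A : Matrix (Fin m ⊕ Fin m) (Fin m ⊕ Fin m) F))
    (Matrix.toLin' ((A⁻¹ : Matrix.symplecticGroup (Fin m) F) : Matrix (Fin m ⊕ Fin m) (Fin m ⊕ Fin m) F))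
    (by
      rw [← Matrix.toLin'_mul]
      have : (A : Matrix (Fin m ⊕ Fin m) (Fin m ⊕ Fin m) F) *
          ((A⁻¹ : Matrix.symplecticGroup (Fin m) F) : Matrix (Fin m ⊕ Fin m) (Fin m ⊕ Fin m) F) = 1 :=
        congrArg Subtype.val (mul_inv_cancel A)
      rw [this, Matrix.toLin'_one])
    (by
      rw [← Matrix.toLin'_mul]
      have : ((A⁻¹ : Matrix.symplecticGroup (Fin m) F) : Matrix (Fin m ⊕ Fin m) (Fin m ⊕ Fin m) F) *
          (A : Matrix (Fin m ⊕ Fin m) (Fin m ⊕ Fin m) F) = 1 :=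
        congrArg Subtype.val (inv_mul_cancel A)
      rw [this, Matrix.toLin'_one])

theorem topEq_apply (A : Matrix.symplecticGroup (Fin m) F) (u : Fin m ⊕ Fin m → F) :
    topEq A u = (A : Matrix (Fin m ⊕ Fin m) (Fin m ⊕ Fin m) F) *ᵥ u := rfl

theorem top_form (A : Matrix (Fin m ⊕ Fin m) (Fin m ⊕ Fin m) F) (u v : Fin m ⊕ Fin m → F) :
    Matrix.toBilin' (Matrix.J (Fin m) F) (A *ᵥ u) (A *ᵥ v) =
      Matrix.toBilin' (Aᵀ * Matrix.J (Fin m) F * A) u v := by
  rw [Matrix.toBilin'_apply', Matrix.toBilin'_apply', ← Matrix.vecMul_transpose, ← Matrix.dotProduct_mulVec,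
    Matrix.mulVec_mulVec, Matrix.mulVec_mulVec, Matrix.mul_assoc]

theorem top_mem_iff (A : Matrix (Fin m ⊕ Fin m) (Fin m ⊕ Fin m) F) :
    A ∈ Matrix.symplecticGroup (Fin m) F ↔ ∀ u v, Matrix.toBilin' (Matrix.J (Fin m) F) (A *ᵥ u) (A *ᵥ v) =
      Matrix.toBilin' (Matrix.J (Fin m) F) u v := by
  rw [SymplecticGroup.mem_iff']
  constructor
  · intro h u v
    rw [top_form, h]
  · intro h
    apply Matrix.toBilin'.injective
    apply LinearMap.ext₂
    intro u v
    rw [← top_form, h]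

/-- TOP. -/
theorem top_card {F : Type*} [Field F] [Fintype F] {m : ℕ} (x : Matrix.symplecticGroup (Fin m) F) :
    Nat.card ↥(Subgroup.centralizer ({x} : Set ↥(Matrix.symplecticGroup (Fin m) F))) =
      Nat.card {g : (Fin m ⊕ Fin m → F) ≃ₗ[F] (Fin m ⊕ Fin m → F) //
        (∀ u v, Matrix.toBilin' (Matrix.J (Fin m) F) (g u) (g v) = Matrix.toBilin' (Matrix.J (Fin m) F) u v) ∧
        ∀ u, g (Matrix.toLin' (x : Matrix (Fin m ⊕ Fin m) (Fin m ⊕ Fin m) F) u) =
          Matrix.toLin' (x : Matrix (Fin m ⊕ Fin m) (Fin m ⊕ Fin m) F) (g u)} := by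
  refine Nat.card_congr (Equiv.ofBijective (fun A => ⟨topEq A.1, ?_, ?_⟩) ⟨?_, ?_⟩)
  · intro u v
    rw [topEq_apply, topEq_apply]
    exact (top_mem_iff _).mp A.1.2 u v
  · intro u
    have h := Subgroup.mem_centralizer_singleton_iff.mp A.2
    have h' : (A.1 : Matrix (Fin m ⊕ Fin m) (Fin m ⊕ Fin m) F) * (x : Matrix _ _ F) =
        (x : Matrix _ _ F) * (A.1 : Matrix _ _ F) := congrArg Subtype.val h
    rw [topEq_apply, topEq_apply, Matrix.toLin'_apply, Matrix.toLin'_apply, Matrix.mulVec_mulVec,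
      Matrix.mulVec_mulVec, h']
  · intro A B h
    have h1 : topEq A.1 = topEq B.1 := congrArg Subtype.val h
    apply Subtype.ext
    apply Subtype.ext
    apply Matrix.toLin'.injective
    apply LinearMap.ext
    intro u
    exact DFunLike.congr_fun h1 u
  · rintro ⟨g, hg1, hg2⟩
    set A : Matrix (Fin m ⊕ Fin m) (Fin m ⊕ Fin m) F := LinearMap.toMatrix' (g : _ →ₗ[F] _) with hA
    have hAu : ∀ u, A *ᵥ u = g u := by
      intro u
      rw [← Matrix.toLin'_apply, hA, Matrix.toLin'_toMatrix']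
      rfl
    have hmem : A ∈ Matrix.symplecticGroup (Fin m) F := by
      rw [top_mem_iff]
      intro u v
      rw [hAu, hAu, hg1]
    have hcen : (⟨A, hmem⟩ : Matrix.symplecticGroup (Fin m) F) ∈
        Subgroup.centralizer ({x} : Set ↥(Matrix.symplecticGroup (Fin m) F)) := by
      rw [Subgroup.mem_centralizer_singleton_iff]
      apply Subtype.ext
      show A * (x : Matrix _ _ F) = (x : Matrix _ _ F) * A
      apply Matrix.toLin'.injective
      apply LinearMap.ext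
      intro u
      rw [Matrix.toLin'_apply, Matrix.toLin'_apply, ← Matrix.mulVec_mulVec, ← Matrix.mulVec_mulVec, hAu, hAu,
        ← Matrix.toLin'_apply, ← Matrix.toLin'_apply, hg2]
    refine ⟨⟨⟨A, hmem⟩, hcen⟩, ?_⟩
    apply Subtype.ext
    apply LinearEquiv.ext
    intro u
    show topEq ⟨A, hmem⟩ u = g u
    rw [topEq_apply]
    exact hAu u

end Cfsg.Agent.Lib.Helper63.C3U
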